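import Mathlib
import Cfsg.Agent.H770.CY.Defs
import Cfsg.Agent.S0252
import Cfsg.Agent.S0254

/-!
# S4829, the alternating groups of degree 5 and 6 (helper251)
-/

set_option autoImplicit false

namespace Cfsg.Agent.H251.CYA

open Cfsg Cfsg.Agent.H770.CY

theorem alt_small {p : ℕ} (hp : p.Prime) (hp2 : p ≠ 2)
    (hpsl : RowForA p (fun X _ => ∃ (F : Type) (_ : Field F) (_ : Fintype F) (n : ℕ), (p : F) ≠ 0 ∧ 2 ≤ n ∧
      Nonempty (X ≃* Matrix.ProjectiveSpecialLinearGroup (Fin n) F)))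
    (hlie : RowForA p (fun X _ => IsLieTypeChar p X)) (X : Type) [Group X] [Fintype X] [IsSimpleGroup X]
    (hX : ¬ IsMulCommutative X) (hpX : p ∣ Nat.card X)
    (h : Nonempty (X ≃* alternatingGroup (Fin 5)) ∨ Nonempty (X ≃* alternatingGroup (Fin 6))) : RowA p X := by
  have : Fact p.Prime := ⟨hp⟩
  rcases h with ⟨⟨e⟩⟩ | ⟨⟨e⟩⟩
  · have : Fact (Nat.Prime 2) := ⟨Nat.prime_two⟩
    have : Fintype (GaloisField 2 2) := Fintype.ofFinite _
    have hc : Fintype.card (GaloisField 2 2) = 4 := by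
      rw [← Nat.card_eq_fintype_card, GaloisField.card 2 2 (by norm_num)]; norm_num
    obtain ⟨f⟩ := Cfsg.Agent.S0252.result hc
    refine hpsl X hX hpX ⟨GaloisField 2 2, inferInstance, inferInstance, 2, ?_, le_rfl, ⟨e.trans f.symm⟩⟩
    intro h0
    have h1 := (CharP.cast_eq_zero_iff (GaloisField 2 2) 2 p).1 h0
    exact hp2 ((Nat.prime_dvd_prime_iff_eq Nat.prime_two hp).1 h1).symm
  · have h3 : Fact (Nat.Prime 3) := ⟨Nat.prime_three⟩
    have : Fintype (GaloisField 3 2) := Fintype.ofFinite _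
    have hc : Fintype.card (GaloisField 3 2) = 9 := by
      rw [← Nat.card_eq_fintype_card, GaloisField.card 3 2 (by norm_num)]; norm_num
    obtain ⟨f⟩ := Cfsg.Agent.S0254.result hc
    by_cases hp3 : p = 3
    · subst hp3
      exact hlie X hX hpX (Or.inl ⟨GaloisField 3 2, inferInstance, inferInstance, inferInstance, 2, le_rfl,
        fun _ => by omega, ⟨e.trans f.symm⟩⟩)
    · refine hpsl X hX hpX ⟨GaloisField 3 2, inferInstance, inferInstance, 2, ?_, le_rfl, ⟨e.trans f.symm⟩⟩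
      intro h0
      have h1 := (CharP.cast_eq_zero_iff (GaloisField 3 2) 3 p).1 h0
      exact hp3 ((Nat.prime_dvd_prime_iff_eq Nat.prime_three hp).1 h1).symm

end Cfsg.Agent.H251.CYA
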