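import Cfsg.Agent.H168.CY.Alt
import Cfsg.Agent.H251.CYA.Small

/-!
# S4829, the alternating groups (helper168, helper251)
-/

set_option autoImplicit false

namespace Cfsg.Agent.H251.CYA

open Cfsg Cfsg.Agent.H770.CY

theorem alt_row {p : ℕ} (hp : p.Prime) (hp2 : p ≠ 2)
    (hpsl : RowForA p (fun X _ => ∃ (F : Type) (_ : Field F) (_ : Fintype F) (n : ℕ), (p : F) ≠ 0 ∧ 2 ≤ n ∧
      Nonempty (X ≃* Matrix.ProjectiveSpecialLinearGroup (Fin n) F)))
    (hlie : RowForA p (fun X _ => IsLieTypeChar p X)) : RowForA p (fun X _ => IsAlternating X) := by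
  have : Fact p.Prime := ⟨hp⟩
  intro X _ _ _ hX hpX h
  obtain ⟨n, hn, e⟩ := h
  by_cases h6 : n = 6
  · subst h6
    exact alt_small hp hp2 hpsl hlie X hX hpX (Or.inr e)
  · exact Cfsg.Agent.H168.CY.alt_ne_six hp2 X hX hpX ⟨n, hn, h6, e⟩

end Cfsg.Agent.H251.CYA
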